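import Mathlib

set_option autoImplicit false

/-!
Core-free maximal subgroups: a nontrivial normal subgroup supplements them, the centralizer of a
nontrivial normal subgroup meets them trivially and is trivial or minimal normal.
-/

namespace Cfsg.Agent.Lib.Helper10

variable {G : Type*} [Group G]

/-- A nontrivial normal subgroup supplements a core-free maximal subgroup. -/
theorem sup_eq_top_of_coreFree (U : Subgroup G) (hU : IsCoatom U) (hcore : U.normalCore = ⊥)
    (K : Subgroup G) [K.Normal] (hK : K ≠ ⊥) : K ⊔ U = ⊤ := by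
  refine hU.2 _ (right_lt_sup.mpr ?_)
  intro hKU
  apply hK
  rw [eq_bot_iff, ← hcore]
  exact Subgroup.normal_le_normalCore.mpr hKU

/-- Elements of `K ⊔ U = ⊤` with `K` normal are products. -/
theorem exists_mul_of_sup_eq_top (K U : Subgroup G) [K.Normal] (h : K ⊔ U = ⊤) (g : G) :
    ∃ k ∈ K, ∃ u ∈ U, g = k * u := by
  have hg : g ∈ ((K ⊔ U : Subgroup G) : Set G) := by rw [h]; trivial
  rw [Subgroup.normal_mul] at hg
  obtain ⟨k, hk, u, hu, rfl⟩ := hg
  exact ⟨k, hk, u, hu, rfl⟩

/-- The centralizer of a nontrivial normal subgroup meets a core-free maximal subgroup trivially. -/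
theorem centralizer_inf_eq_bot_of_coreFree (U : Subgroup G) (hU : IsCoatom U)
    (hcore : U.normalCore = ⊥) (N : Subgroup G) [N.Normal] (hN : N ≠ ⊥) :
    Subgroup.centralizer (N : Set G) ⊓ U = ⊥ := by
  have hsup := sup_eq_top_of_coreFree U hU hcore N hN
  have hnorm : (Subgroup.centralizer (N : Set G) ⊓ U).Normal := by
    constructor
    intro d hd g
    obtain ⟨n, hn, u, hu, rfl⟩ := exists_mul_of_sup_eq_top N U hsup g
    have hCn : (Subgroup.centralizer (N : Set G)).Normal := inferInstance
    have h1 : u * d * u⁻¹ ∈ Subgroup.centralizer (N : Set G) := hCn.conj_mem d hd.1 u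
    have h2 : u * d * u⁻¹ ∈ U := U.mul_mem (U.mul_mem hu hd.2) (U.inv_mem hu)
    have h3 : n * (u * d * u⁻¹) = (u * d * u⁻¹) * n := (h1 n hn)
    have e : n * u * d * (n * u)⁻¹ = u * d * u⁻¹ := by
      calc n * u * d * (n * u)⁻¹ = n * (u * d * u⁻¹) * n⁻¹ := by group
        _ = (u * d * u⁻¹) * n * n⁻¹ := by rw [h3]
        _ = u * d * u⁻¹ := by group
    rw [e]
    exact ⟨h1, h2⟩
  rw [eq_bot_iff, ← hcore]
  exact Subgroup.normal_le_normalCore.mpr inf_le_right

/-- The centralizer of a nontrivial normal subgroup has no proper nontrivial subgroup that is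
normal in `G`, when `G` has a core-free maximal subgroup. -/
theorem centralizer_minimal_of_coreFree (U : Subgroup G) (hU : IsCoatom U)
    (hcore : U.normalCore = ⊥) (N : Subgroup G) [N.Normal] (hN : N ≠ ⊥)
    (K : Subgroup G) (hKn : K.Normal) (hK : K ≤ Subgroup.centralizer (N : Set G)) :
    K = ⊥ ∨ K = Subgroup.centralizer (N : Set G) := by
  by_cases hKb : K = ⊥
  · exact Or.inl hKb
  · right
    refine le_antisymm hK ?_
    intro c hc
    obtain ⟨k, hk, u, hu, rfl⟩ := exists_mul_of_sup_eq_top K U
      (sup_eq_top_of_coreFree U hU hcore K hKb) c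
    have hu' : u ∈ Subgroup.centralizer (N : Set G) ⊓ U := by
      refine ⟨?_, hu⟩
      have := Subgroup.mul_mem _ (Subgroup.inv_mem _ (hK hk)) hc
      simpa using this
    rw [centralizer_inf_eq_bot_of_coreFree U hU hcore N hN, Subgroup.mem_bot] at hu'
    rw [hu', mul_one]
    exact hk

end Cfsg.Agent.Lib.Helper10
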